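import Cfsg.Agent.Lib.Helper26.FusIdx

set_option autoImplicit false

/-! Invariant subsystems: the strong invariance condition (AKO I.6.4). -/

namespace Cfsg.Agent.Lib.Helper26

open Cfsg Cfsg.FusionSystem
open scoped commutatorElement

variable {Ω : Type*} [Group Ω] {S T : Subgroup Ω}
variable {P Q R N K U V W : Subgroup Ω} {f g : Ω → Ω} {F : FusionSystem S} {E : FusionSystem T} {p : ℕ}

/-- invariance of `E` under `Aut_F(T)` -/
def InvC (E : FusionSystem T) (F : FusionSystem S) : Prop :=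
  ∀ P f, Map E P f → ∀ α ∈ F.autGroup T, ∃ χ, Map E (im (aev α) P) χ ∧ ∀ x ∈ P, χ (aev α x) = aev α (f x)

/-- `f` is an element of `Aut_F(T)` composed with a map of `E` -/
def FrC (E : FusionSystem T) (F : FusionSystem S) (P : Subgroup Ω) (f : Ω → Ω) : Prop :=
  ∃ α ∈ F.autGroup T, ∃ f₀, Map E P f₀ ∧ ∀ x ∈ P, f x = aev α (f₀ x)

/-- strong invariance -/
def SInv (E : FusionSystem T) (F : FusionSystem S) : Prop :=
  ∀ P Q : Subgroup Ω, P ≤ Q → Q ≤ T → ∀ f, Map E P f → (∀ x ∈ P, f x ∈ Q) → ∀ g, Map F Q g →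
    ∃ χ, Map E (im g P) χ ∧ ∀ x ∈ P, χ (g x) = g (f x)

theorem FrC.congr (h : FrC E F P f) (hfg : ∀ x ∈ P, f x = g x) : FrC E F P g := by
  obtain ⟨α, hα, f₀, h0, h⟩ := h
  exact ⟨α, hα, f₀, h0, fun x hx => (hfg x hx).symm.trans (h x hx)⟩

theorem FrC.restrict (h : FrC E F P f) (hR : R ≤ P) : FrC E F R f := by
  obtain ⟨α, hα, f₀, h0, h⟩ := h
  exact ⟨α, hα, f₀, h0.restrict hR, fun x hx => h x (hR hx)⟩

theorem FrC.of_map (h : Map E P f) : FrC E F P f :=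
  ⟨1, Subgroup.one_mem _, f, h, fun x hx => (aev_one (h.mem_S hx)).symm⟩

theorem FrC.comp (hI : InvC E F) (a : FrC E F P f) (b : FrC E F Q g) (hPQ : ∀ x ∈ P, f x ∈ Q) :
    FrC E F P (g ∘ f) := by
  obtain ⟨α, hα, f₀, h0, h⟩ := a
  obtain ⟨β, hβ, g₀, hg0, h'⟩ := b
  obtain ⟨χ, hχ, hχ'⟩ := hI Q g₀ hg0 α⁻¹ (Subgroup.inv_mem _ hα)
  have h1 : ∀ x ∈ P, f₀ x = aev α⁻¹ (f x) := fun x hx => by
    rw [h x hx, aev_inv_apply α (h0.mem_S hx)]
  refine ⟨β * α, Subgroup.mul_mem _ hβ hα, χ ∘ f₀, h0.comp hχ ?_, fun x hx => ?_⟩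
  · intro x hx
    rw [h1 x hx]
    exact mem_im_of_mem (hPQ x hx)
  · simp only [Function.comp]
    have h2 : g₀ (f x) ∈ T := hg0.mem_S (hPQ x hx)
    rw [h1 x hx, hχ' _ (hPQ x hx), aev_mul _ _ (aev_mem_self _ h2), aev_apply_inv α h2, h' _ (hPQ x hx)]

theorem FrC.inv (hI : InvC E F) (hf : Map F P f) (a : FrC E F P f) : FrC E F (im f P) (inv f P) := by
  obtain ⟨α, hα, f₀, h0, h⟩ := a
  obtain ⟨χ, hχ, hχ'⟩ := hI _ _ h0.symm α hα
  have e : im (aev α) (im f₀ P) = im f P := by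
    rw [← im_comp h0]
    exact im_congr fun x hx => (h x hx).symm
  rw [e] at hχ
  refine ⟨α⁻¹, Subgroup.inv_mem _ hα, χ, hχ, fun y hy => ?_⟩
  obtain ⟨x, hx, rfl⟩ := (mem_im hf).1 hy
  rw [inv_apply hf hx, h x hx, hχ' _ (mem_im_of_mem hx), inv_apply h0 hx, aev_inv_apply α (h0.le hx)]

theorem SInv.invC (hT : T ≤ S) (h : SInv E F) : InvC E F := by
  intro P f hf α hα
  exact h P T hf.le le_rfl f hf (fun x hx => hf.mem_S hx) _ ((mem_autGroup_iff hT).1 hα)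

theorem sInv_of_invariant (hI : InvC E F) (hFr : ∀ P ≤ T, ∀ f, Map F P f → FrC E F P f) : SInv E F := by
  intro P Q hPQ hQT f hf hfQ g hg
  obtain ⟨α, hα, g₀, hg0, h⟩ := hFr Q hQT g hg
  -- `g₀ f g₀⁻¹` on `g₀ P`
  have hg0P := hg0.restrict hPQ
  have h1 : Map E (im g₀ P) (g₀ ∘ f ∘ inv g₀ P) := by
    have h2 : Map E (im g₀ P) (f ∘ inv g₀ P) := hg0P.symm.comp hf (fun y hy => inv_mem hg0P hy)
    exact h2.comp hg0 (fun y hy => hfQ _ (inv_mem hg0P hy))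
  obtain ⟨χ, hχ, hχ'⟩ := hI _ _ h1 α hα
  have e : im (aev α) (im g₀ P) = im g P := by
    rw [← im_comp hg0P]
    exact im_congr fun x hx => (h x (hPQ hx)).symm
  rw [e] at hχ
  refine ⟨χ, hχ, fun x hx => ?_⟩
  rw [h x (hPQ hx), hχ' _ (mem_im_of_mem hx)]
  simp only [Function.comp]
  rw [inv_apply hg0P hx, h _ (hfQ x hx)]

theorem frattini_of_sInv [Finite S] [Fact p.Prime] (hS : IsPGroup p S) (hF : F.IsSaturated p)
    (hEF : ∀ P f, Map E P f → Map F P f) (hT : F.StronglyClosed T) (hSI : SInv E F) :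
    ∀ (n : ℕ) (Q : Subgroup Ω), Q ≤ T → Nat.card T - Nat.card Q = n → ∀ f, Map F Q f → FrC E F Q f := by
  have hTS := hT.1
  have hI := hSI.invC hTS
  have hfT : Finite T := finite_of_le hTS
  have hTp : IsPGroup p T := hS.to_le hTS
  intro n
  induction n using Nat.strong_induction_on with
  | _ n ih =>
  intro Q hQT hn f hf
  by_cases hQ : Q = T
  · subst hQ
    have him : im f Q = Q := StronglyClosed.im_eq hT hf le_rfl
    obtain ⟨α, hα, h⟩ := hf.exists_aut him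
    exact ⟨α, hα, id, Map.refl le_rfl, fun x hx => (h x hx).symm⟩
  have hlt : Q < T := lt_of_le_of_ne hQT hQ
  have hcT : Nat.card Q < Nat.card T := card_lt_of_lt hlt
  have big : ∀ (R : Subgroup Ω) (g : Ω → Ω), R ≤ T → Map F R g → Nat.card Q < Nat.card R → FrC E F R g := by
    intro R g hR hg hc
    have : Nat.card R ≤ Nat.card T := Subgroup.card_le_of_le hR
    exact ih (Nat.card T - Nat.card R) (by omega) R hR rfl g hg
  obtain ⟨Q', hQQ', hQ'n⟩ := exists_isFullyNormalized (F := F) hf.le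
  have hQ'a := sat_fa_of_fn hS hF hQ'n
  have hQ'r := sat_rec_of_fc hS hF (sat_fc_of_fn hS hF hQ'n)
  have hcQ' : Nat.card Q = Nat.card Q' := IsConj.card_eq hQQ'
  have leT : ∀ R : Subgroup Ω, F.IsConj Q R → R ≤ T := by
    intro R hR
    obtain ⟨g, hg, rfl⟩ := isConj_iff.1 hR
    rw [im_le_iff]
    exact fun x hx => StronglyClosed.map_mem hT hg hx (hQT hx)
  have hQ'T : Q' ≤ T := leT Q' hQQ'
  have hQ'lt : Q' < T := by
    refine lt_of_le_of_ne hQ'T (fun h => ?_)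
    rw [h] at hcQ'; omega
  have ltN : ∀ R : Subgroup Ω, R ≤ T → Nat.card R = Nat.card Q → Nat.card Q < Nat.card (normalizerIn T R) := by
    intro R hR hc
    have hRlt : R < T := by
      refine lt_of_le_of_ne hR (fun h => ?_)
      rw [h] at hc; omega
    have : Finite (normalizerIn T R) := finite_of_le normalizerIn_le
    have := card_lt_of_lt (lt_normalizerIn hTp hRlt)
    omega
  -- reduction maps
  have red : ∀ R : Subgroup Ω, R ≤ T → F.IsConj R Q' → ∃ ψ, Map F R ψ ∧ FrC E F R ψ ∧ im ψ R = Q' := by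
    intro R hRT hR
    obtain ⟨ψ, hψ, h1, -⟩ := exists_map_normalizerIn hS hQ'a hQ'r hR
    have hcR : Nat.card R = Nat.card Q := (IsConj.card_eq hR).trans hcQ'.symm
    have hle : normalizerIn T R ≤ normalizerIn S R := normalizerIn_mono hTS
    have h3 := big _ ψ normalizerIn_le (hψ.restrict hle) (ltN R hRT hcR)
    exact ⟨ψ, hψ.restrict (le_normalizerIn (hRT.trans hTS)), h3.restrict (le_normalizerIn hRT), h1⟩
  obtain ⟨ψ, hψF, hψE, hψP⟩ := red Q hQT hQQ'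
  have hfQ : F.IsConj Q (im f Q) := isConj_iff.2 ⟨f, hf, rfl⟩
  obtain ⟨ψ', hψ'F, hψ'E, hψ'P⟩ := red (im f Q) (leT _ hfQ) (isConj_trans (isConj_symm hfQ) hQQ')
  -- automorphisms of `Q'`
  have haut : ∀ γ ∈ F.autGroup Q', FrC E F Q' (aev γ) := by
    intro γ hγ
    have hQ'S := hQ'n.1
    have hsyl := (isFullyAutomized_iff.1 hQ'a).2
    have hfin : Finite (F.autGroup Q') := finite_autGroup hQ'S
    have hBA : E.autGroup Q' ≤ F.autGroup Q' := by
      intro δ hδ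
      exact (mem_autGroup_iff hQ'S).2 (hEF _ _ ((mem_autGroup_iff hQ'T).1 hδ))
    have hconj : ∀ γ ∈ F.autGroup Q', ∀ δ ∈ E.autGroup Q', γ * δ * γ⁻¹ ∈ E.autGroup Q' := by
      intro γ hγ δ hδ
      have hγm := (mem_autGroup_iff hQ'S).1 hγ
      obtain ⟨χ, hχ, hχ'⟩ := hSI Q' Q' le_rfl hQ'T _ ((mem_autGroup_iff hQ'T).1 hδ)
        (fun x hx => aev_mem_self δ hx) _ hγm
      rw [im_aev] at hχ
      rw [mem_autGroup_iff hQ'T]
      refine hχ.congr fun y hy => ?_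
      have hw := aev_mem_self γ⁻¹ hy
      conv_lhs => rw [← aev_apply_inv γ hy]
      rw [hχ' _ hw, aev_mul _ _ hy, aev_mul _ _ hw]
    have hnorm : F.autGroup Q' ≤ Subgroup.normalizer ((E.autGroup Q' : Subgroup (MulAut Q')) : Set (MulAut Q')) := by
      intro γ hγ
      rw [Subgroup.mem_normalizer_iff]
      intro δ
      refine ⟨hconj γ hγ δ, fun h => ?_⟩
      have := hconj γ⁻¹ (Subgroup.inv_mem _ hγ) _ h
      have e : γ⁻¹ * (γ * δ * γ⁻¹) * γ⁻¹⁻¹ = δ := by group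
      rwa [e] at this
    have hsylB := hsyl.inf_normal hBA hnorm
    have hfinB : Finite (E.autGroup Q') := finite_of_le hBA
    obtain ⟨κ, hκB, hκ⟩ := hsylB.exists_conj
      (B := (autInducedBy S Q' ⊓ E.autGroup Q').map (MulAut.conj γ).toMonoidHom) (by
        rintro _ ⟨σ, hσ, rfl⟩
        exact hconj γ hγ σ hσ.2) (((isPGroup_autInducedBy hS).to_le inf_le_left).map _)
    have hνA : κ * γ ∈ F.autGroup Q' := Subgroup.mul_mem _ (hBA hκB) hγ
    have hνm := (mem_autGroup_iff hQ'S).1 hνA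
    have hNle : normalizerIn T Q' ≤ Nf S Q' (aev (κ * γ)) := by
      intro a ha
      obtain ⟨ha1, ha2⟩ := mem_normalizerIn.1 ha
      obtain ⟨σ, hσ⟩ := exists_aut_of_normalizer ha2
      have hσ1 : σ ∈ autInducedBy S Q' := mem_autInducedBy_iff.2 ⟨a, hTS ha1, hσ⟩
      have hσ2 : σ ∈ E.autGroup Q' := autInducedBy_le_autGroup hQ'T (mem_autInducedBy_iff.2 ⟨a, ha1, hσ⟩)
      have h1 := (hκ _ ⟨σ, ⟨hσ1, hσ2⟩, rfl⟩).1
      have e : κ * (MulAut.conj γ).toMonoidHom σ * κ⁻¹ = (κ * γ) * σ * (κ * γ)⁻¹ := by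
        show κ * (γ * σ * γ⁻¹) * κ⁻¹ = _
        group
      rw [e] at h1
      obtain ⟨b, hb, hb'⟩ := mem_autInducedBy_iff.1 h1
      refine mem_Nf_iff.2 ⟨hTS ha1, ha2, b, hb, fun x hx => ?_⟩
      rw [← aev_conj_aut hσ hx, hb' _ (aev_mem_self _ hx)]
    obtain ⟨f', hf', hf'P⟩ := (isReceptive_iff.1 hQ'r).2 Q' _ hνm (im_aev _)
    have h2 := big _ f' normalizerIn_le (hf'.restrict hNle) (ltN Q' hQ'T hcQ'.symm)
    have h3 : FrC E F Q' (aev (κ * γ)) := (h2.restrict (le_normalizerIn hQ'T)).congr hf'P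
    have h4 : FrC E F Q' (aev κ⁻¹) := FrC.of_map ((mem_autGroup_iff hQ'T).1 (Subgroup.inv_mem _ hκB))
    refine (h3.comp hI h4 (fun x hx => aev_mem_self _ hx)).congr fun x hx => ?_
    simp only [Function.comp]
    rw [aev_mul _ _ hx, aev_inv_apply κ (aev_mem_self _ hx)]
  have hθ : Map F Q' (ψ' ∘ f ∘ inv ψ Q) := by
    have h1 : Map F Q' (inv ψ Q) := hψP ▸ hψF.symm
    have h2 : Map F Q' (f ∘ inv ψ Q) := h1.comp hf (fun y hy => inv_mem hψF (hψP ▸ hy))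
    exact h2.comp hψ'F (fun y hy => mem_im_of_mem (inv_mem hψF (hψP ▸ hy)))
  have hθim : im (ψ' ∘ f ∘ inv ψ Q) Q' = Q' := by
    have : Finite Q' := finite_of_le hQ'n.1
    apply Subgroup.eq_of_le_of_card_ge _ hθ.card_im.ge
    rw [im_le_iff]
    intro y hy
    rw [← hψ'P]
    exact mem_im_of_mem (mem_im_of_mem (inv_mem hψF (hψP ▸ hy)))
  obtain ⟨α, hα, hαθ⟩ := hθ.exists_aut hθim
  have h1 := haut α hα
  -- `f = ψ'⁻¹ θ ψ`
  have h2 : FrC E F Q (aev α ∘ ψ) := hψE.comp hI h1 (fun x hx => hψP ▸ mem_im_of_mem hx)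
  have h3 : FrC E F Q' (inv ψ' (im f Q)) := hψ'P ▸ FrC.inv hI hψ'F hψ'E
  refine (h2.comp hI h3 (fun x hx => aev_mem_self α (hψP ▸ mem_im_of_mem hx))).congr fun x hx => ?_
  simp only [Function.comp]
  rw [hαθ _ (hψP ▸ mem_im_of_mem hx)]
  simp only [Function.comp]
  rw [inv_apply hψF hx, inv_apply hψ'F (mem_im_of_mem hx)]

theorem isInvariantIn_iff_sInv [Finite S] [Fact p.Prime] (hS : IsPGroup p S) (hF : F.IsSaturated p)
    (hEF : E.IsSubsystemOf F) (hT : F.StronglyClosed T) : E.IsInvariantIn F ↔ SInv E F := by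
  rw [isInvariantIn_iff]
  constructor
  · rintro ⟨-, -, hI, hFr⟩
    exact sInv_of_invariant hI hFr
  · intro h
    exact ⟨isSubsystemOf_iff.1 hEF, hT, h.invC hT.1,
      fun P hP f hf => frattini_of_sInv hS hF (isSubsystemOf_iff.1 hEF) hT h _ P hP rfl f hf⟩

end Cfsg.Agent.Lib.Helper26
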